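import Cfsg.Agent.S1729
import Cfsg.Agent.HoltZ.Base
import Cfsg.Agent.Lib.Cores

/-!
# Holt's theorem (S1729) in terms of subgroups (helper290)

`holt_uf` : `G` nonabelian simple, `M` a proper subgroup, `z ∈ M` a 2-central involution of `G` such that
`g z g⁻¹ ∈ M` implies `g ∈ M`. Then `G` has a strongly embedded subgroup or is an alternating group of odd degree.
-/

set_option autoImplicit false

namespace Cfsg.Agent.H290

open Cfsg Subgroup Cfsg.Agent.HoltZ

/-- the property of a 2-central involution passes to overgroups -/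
theorem uf_of_le {G : Type*} [Group G] [Finite G] {M K : Subgroup G} {z : G} (hz : IsTwoCentralInvolution z)
    (h : UF M z) (hMK : M ≤ K) (hK : K ≠ ⊤) : UF K z := by
  have : Fact (Nat.Prime 2) := ⟨Nat.prime_two⟩
  refine ⟨hK, hMK h.mem, fun g hg => ?_⟩
  obtain ⟨hz2, P, hzP, hP⟩ := hz
  have hPM : (P : Subgroup G) ≤ M := h.pgroup P.2 hzP
  have hPK : (P : Subgroup G) ≤ K := hPM.trans hMK
  -- a Sylow subgroup of `K` containing `g z g⁻¹`
  let PK : Sylow 2 K := P.subtype hPK
  have hzo : orderOf (⟨g * z * g⁻¹, hg⟩ : K) = 2 := by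
    rw [Subgroup.orderOf_mk]
    have : g * z * g⁻¹ = MulAut.conj g z := rfl
    rw [this, MulEquiv.orderOf_eq, hz2]
  have h2 : IsPGroup 2 (zpowers (⟨g * z * g⁻¹, hg⟩ : K)) :=
    IsPGroup.of_card (n := 1) (by rw [Nat.card_zpowers, hzo, pow_one])
  obtain ⟨Q, hQ⟩ := h2.exists_le_sylow
  obtain ⟨k, hk⟩ := MulAction.exists_smul_eq K Q PK
  have h3 : k * (⟨g * z * g⁻¹, hg⟩ : K) * k⁻¹ ∈ PK := by
    rw [← hk]
    exact ⟨_, hQ (mem_zpowers _), rfl⟩
  have h4 : (k : G) * (g * z * g⁻¹) * (k : G)⁻¹ ∈ (P : Subgroup G) := h3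
  have h5 : (k : G) * g ∈ M := h.ctrl _ (by
    have e : (k : G) * g * z * ((k : G) * g)⁻¹ = (k : G) * (g * z * g⁻¹) * (k : G)⁻¹ := by group
    rw [e]
    exact hPM h4)
  exact (K.mul_mem_cancel_left k.2).1 (hMK h5)

theorem center_eq_bot {G : Type*} [Group G] [IsSimpleGroup G] (hG : ¬ IsMulCommutative G) : center G = ⊥ := by
  have hn : (center G).Normal := inferInstance
  rcases hn.eq_bot_or_eq_top with h | h
  · exact h
  · exfalso
    apply hG
    refine ⟨⟨fun a b => ?_⟩⟩
    have h1 : b ∈ center G := by rw [h]; trivial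
    exact mem_center_iff.1 h1 a

/-- **Holt's theorem**, subgroup form. -/
theorem holt_uf {G : Type*} [Group G] [Finite G] [IsSimpleGroup G] (hG : ¬ IsMulCommutative G)
    {M : Subgroup G} {z : G} (hz : IsTwoCentralInvolution z) (h : UF M z) :
    (∃ H : Subgroup G, IsStronglyEmbedded H) ∨
      ∃ n : ℕ, Odd n ∧ Nonempty (G ≃* alternatingGroup (Fin n)) := by
  classical
  have hc := center_eq_bot hG
  -- a maximal subgroup
  obtain ⟨K, hK, hMK⟩ := (eq_top_or_exists_le_coatom M).resolve_left h.ne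
  have hU := uf_of_le hz h hMK hK.1
  -- the action
  have hfaith : FaithfulSMul G (G ⧸ K) := by
    refine ⟨fun {a b} hab => ?_⟩
    have h1 : a * b⁻¹ ∈ K.normalCore := by
      rw [Subgroup.normalCore_eq_ker, MonoidHom.mem_ker]
      ext x
      show (a * b⁻¹) • x = x
      rw [mul_smul, hab, smul_inv_smul]
    rcases (Subgroup.normalCore_normal K).eq_bot_or_eq_top with h2 | h2
    · rw [h2, mem_bot] at h1
      exact mul_inv_eq_one.1 h1
    · exact absurd (top_le_iff.1 (h2 ▸ K.normalCore_le)) hK.1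
  have hnt : Nontrivial (G ⧸ K) := by
    by_contra hcon
    rw [not_nontrivial_iff_subsingleton] at hcon
    apply hK.1
    rw [eq_top_iff]
    intro x _
    have h1 : ((1 : G) : G ⧸ K) = (x : G ⧸ K) := Subsingleton.elim _ _
    have h2 := QuotientGroup.eq.1 h1
    simpa using h2
  have hprim : MulAction.IsPreprimitive G (G ⧸ K) := by
    rw [← MulAction.isCoatom_stabilizer_iff_preprimitive G ((1 : G) : G ⧸ K), MulAction.stabilizer_quotient]
    exact hK
  have hodd : oddCore G = ⊥ := by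
    rcases (Cfsg.Agent.Lib.Cores.pPrimeCore_normal (G := G) 2).eq_bot_or_eq_top with h1 | h1
    · exact h1
    · exfalso
      have h2 := Cfsg.Agent.Lib.Cores.pPrimeCore_coprime (G := G) 2
      rw [h1, Subgroup.card_top] at h2
      have h3 := Nat.coprime_two_right.1 h2
      exact Nat.not_even_iff_odd.2 h3 (even_iff_two_dvd.2 (hz.1 ▸ orderOf_dvd_natCard z))
  have hfix : ∃! ω : G ⧸ K, z • ω = ω := by
    refine ⟨((1 : G) : G ⧸ K), ?_, ?_⟩
    · show ((z * 1 : G) : G ⧸ K) = ((1 : G) : G ⧸ K)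
      rw [QuotientGroup.eq]
      simpa using K.inv_mem hU.mem
    · intro ω hω
      obtain ⟨g, rfl⟩ := QuotientGroup.mk_surjective ω
      have h1 : ((z * g : G) : G ⧸ K) = ((g : G) : G ⧸ K) := hω
      rw [QuotientGroup.eq] at h1
      have h2 : g⁻¹ * z * g⁻¹⁻¹ ∈ K := by
        have := K.inv_mem h1
        have e : ((z * g)⁻¹ * g)⁻¹ = g⁻¹ * z * g⁻¹⁻¹ := by group
        rwa [e] at this
      have h3 := hU.ctrl _ h2
      rw [QuotientGroup.eq]
      simpa using h3
  rcases Cfsg.Agent.S1729.result (Ω := G ⧸ K) hodd hc z hz hfix with h1 | ⟨n, hn, h1 | ⟨⟨e⟩⟩⟩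
  · exact Or.inl h1
  · exact Or.inr ⟨n, hn, h1⟩
  · exfalso
    -- the symmetric group is not simple
    have hs : ∀ f : G →* ℤˣ, f = 1 := by
      intro f
      rcases (MonoidHom.normal_ker f).eq_bot_or_eq_top with h2 | h2
      · exfalso
        apply hG
        refine ⟨⟨fun a b => ?_⟩⟩
        apply (MonoidHom.ker_eq_bot_iff f).1 h2
        rw [map_mul, map_mul, mul_comm]
      · exact MonoidHom.ext fun x => by
          have : x ∈ f.ker := by rw [h2]; trivial
          exact MonoidHom.mem_ker.1 this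
    have h3 : 2 ≤ n := by
      by_contra hlt
      have hn1 : n = 1 := by
        obtain ⟨k, hk⟩ := hn
        omega
      subst hn1
      obtain ⟨g, hg⟩ := exists_ne (1 : G)
      apply hg
      apply e.injective
      exact Subsingleton.elim _ _
    have h4 := hs ((Equiv.Perm.sign).comp e.toMonoidHom)
    have h5 : (Equiv.Perm.sign (Equiv.swap (⟨0, by omega⟩ : Fin n) ⟨1, by omega⟩)) = -1 :=
      Equiv.Perm.sign_swap (by intro h; exact absurd (congrArg Fin.val h) (by norm_num))
    have h6 := DFunLike.congr_fun h4 (e.symm (Equiv.swap (⟨0, by omega⟩ : Fin n) ⟨1, by omega⟩))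
    rw [MonoidHom.comp_apply] at h6
    change Equiv.Perm.sign (e (e.symm _)) = 1 at h6
    rw [e.apply_symm_apply, h5] at h6
    exact absurd h6 (by decide)

end Cfsg.Agent.H290
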